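import Cfsg.Agent.Lib.Helper11.P5c0.D0
import Cfsg.Agent.Lib.Helper11.Words

set_option autoImplicit false
set_option maxRecDepth 100000

namespace Cfsg.Agent.Lib.Helper11.P5c0

noncomputable def fc (i : ℕ) : ℕ := fc0_0 i
noncomputable def sc (i : ℕ) : ℕ := sc0_0 i
noncomputable def nc (i : ℕ) : ℕ := nc0_0 i
noncomputable def cc (i : ℕ) : ℕ := cc0_0 i

noncomputable def INV : ℕ := 100384
def isH (l : ℕ) : Bool := decide (l ∈ [])
def gens : List ℕ := [1, 2, 3]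
def rt : RT := (.node 3 (.node 2 (.node 1 (.leaf 6 0 [1, 3, 1, 3]) (.leaf 5 0 [1, 2, 1, 2, 1, 2, 1, 2])) (.leaf 9 1 [3, 2, 3, 2, 3, 2])) (.node 5 (.node 4 (.leaf 6 1 [3, 1, 3, 1]) (.leaf 9 0 [2, 3, 2, 3, 2, 3])) (.leaf 0 0 [])))


end Cfsg.Agent.Lib.Helper11.P5c0
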